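import Cfsg.Agent.H5.J3.Tab0

set_option autoImplicit false
set_option maxRecDepth 100000
set_option Elab.async false

namespace Cfsg.H6.J3

theorem p8 : allR (ptU img) 6144 768 = true := by decide +kernel

theorem p9 : allR (ptU img) 6912 768 = true := by decide +kernel

theorem p10 : allR (ptU img) 7680 768 = true := by decide +kernel

theorem p11 : allR (ptU img) 8448 768 = true := by decide +kernel

theorem p12 : allR (ptU img) 9216 768 = true := by decide +kernel

theorem p13 : allR (ptU img) 9984 768 = true := by decide +kernel

theorem p14 : allR (ptU img) 10752 768 = true := by decide +kernel

theorem p15 : allR (ptU img) 11520 768 = true := by decide +kernel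

end Cfsg.H6.J3
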