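import Cfsg.Agent.H5.J3.Tab0

set_option autoImplicit false
set_option maxRecDepth 100000
set_option Elab.async false

namespace Cfsg.H6.J3

theorem p16 : allR (ptU img) 12288 768 = true := by decide +kernel

theorem p17 : allR (ptU img) 13056 768 = true := by decide +kernel

theorem p18 : allR (ptU img) 13824 768 = true := by decide +kernel

theorem p19 : allR (ptU img) 14592 768 = true := by decide +kernel

theorem p20 : allR (ptU img) 15360 768 = true := by decide +kernel

theorem p21 : allR (ptU img) 16128 768 = true := by decide +kernel

theorem p22 : allR (ptU img) 16896 546 = true := by decide +kernel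

theorem q0_0 : allR (ivl img Ws 1 6) 1 5 = true := by decide +kernel

end Cfsg.H6.J3
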