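import Cfsg.Agent.H5.J3.Tab0

set_option autoImplicit false
set_option maxRecDepth 100000
set_option Elab.async false

namespace Cfsg.H6.J3

theorem q1_0 : allR (ivl img Ws 6 26) 6 20 = true := by decide +kernel

theorem q2_0 : allR (ivl img Ws 26 106) 26 80 = true := by decide +kernel

theorem q3_0 : allR (ivl img Ws 106 202) 106 96 = true := by decide +kernel

theorem q4_0 : allR (ivl img Ws 202 322) 202 120 = true := by decide +kernel

theorem q5_0 : allR (ivl img Ws 322 642) 322 320 = true := by decide +kernel

theorem q6_0 : allR (ivl img Ws 642 1122) 642 480 = true := by decide +kernel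

theorem q7_0 : allR (ivl img Ws 1122 1602) 1122 480 = true := by decide +kernel

theorem q8_0 : allR (ivl img Ws 1602 2562) 1602 960 = true := by decide +kernel

end Cfsg.H6.J3
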