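import Cfsg.Agent.H5.J3.Tab0

set_option autoImplicit false
set_option maxRecDepth 100000
set_option Elab.async false

namespace Cfsg.H6.J3

theorem q9_0 : allR (ivl img Ws 2562 3522) 2562 960 = true := by decide +kernel

theorem q10_0 : allR (ivl img Ws 3522 4482) 3522 960 = true := by decide +kernel

theorem q11_0 : allR (ivl img Ws 4482 5442) 4482 960 = true := by decide +kernel

theorem q12_0 : allR (ivl img Ws 5442 6402) 5442 960 = true := by decide +kernel

theorem q13_0 : allR (ivl img Ws 6402 7362) 6402 960 = true := by decide +kernel

theorem q14_0 : allR (ivl img Ws 7362 8802) 7362 1440 = true := by decide +kernel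

theorem q15_0 : allR (ivl img Ws 8802 11682) 8802 2880 = true := by decide +kernel

theorem q16_0 : allR (ivl img Ws 11682 14562) 11682 2880 = true := by decide +kernel

end Cfsg.H6.J3
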