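import Cfsg.Agent.H5.J3.Tab0

set_option autoImplicit false
set_option maxRecDepth 100000
set_option Elab.async false

namespace Cfsg.H6.J3

theorem q17_0 : allR (ivl img Ws 14562 17442) 14562 2880 = true := by decide +kernel

end Cfsg.H6.J3
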