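import Cfsg.Agent.H5.J3.Main
import Cfsg.Agent.H6.More3
import Cfsg.Prelude.Def_Spor_J3

set_option autoImplicit false
set_option maxRecDepth 100000
set_option synthInstance.maxSize 4096
set_option Elab.async false

namespace Cfsg.H6.J3

open Matrix Spor

/-- The position of a coordinate. -/
def pos (z : F9) : ℕ := 3 * z.1.val + z.2.val

def rows : List (List ℕ) := [[], [nat_lit 228953, nat_lit 104366, nat_lit 61619, nat_lit 20689, nat_lit 241881, nat_lit 118894, nat_lit 178541, nat_lit 253622, nat_lit 244035, nat_lit 122497, nat_lit 78786, nat_lit 135491, nat_lit 236202, nat_lit 126975, nat_lit 144377, nat_lit 201054, nat_lit 59106, nat_lit 31603], [nat_lit 191292, nat_lit 228628, nat_lit 83494, nat_lit 166715, nat_lit 111390, nat_lit 184615, nat_lit 119616, nat_lit 156032, nat_lit 430, nat_lit 759, nat_lit 46087, nat_lit 55305, nat_lit 235619, nat_lit 126129, nat_lit 81078, nat_lit 136411, nat_lit 90199, nat_lit 176297], [nat_lit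 74941, nat_lit 145622, nat_lit 228450, nat_lit 103603, nat_lit 118878, nat_lit 155815, nat_lit 855, nat_lit 425, nat_lit 184704, nat_lit 221888, nat_lit 54281, nat_lit 26638, nat_lit 230683, nat_lit 117293, nat_lit 96804, nat_lit 171832, nat_lit 90905, nat_lit 176430], [nat_lit 203881, nat_lit 74942, nat_lit 240567, nat_lit 130521, nat_lit 219211, nat_lit 109709, nat_lit 47901, nat_lit 56614, nat_lit 178568, nat_lit 253644, nat_lit 239614, nat_lit 129367, nat_lit 122525, nat_lit 157670, nat_lit 208860, nat_lit 79204, nat_lit 39722, nat_lit 60735], [nat_lit 203085, nat_lit 77446, nat_lit 183408, nat_lit 214160, nat_lit 156101, nat_lit 242250, nat_lit 258142, nat_lit 86183, nat_lit 205329, nat_lit 78626, nat_lit 38923, nat_lit 60429, nat_lit 137162, nat_lit 207183, nat_lit 146558, nat_lit 201879, nat_lit 33368, nat_lit 50092], [nat_lit 63953, nat_lit 24162, nat_lit 244882, nat_lit 120035, nat_lit 98632, nat_lit 180876, nat_lit 90213,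 nat_lit 176314, nat_lit 205585, nat_lit 78114, nat_lit 39947, nat_lit 58381, nat_lit 38833, nat_lit 59858, nat_lit 199832, nat_lit 66796, nat_lit 62142, nat_lit 21463], [nat_lit 94077, nat_lit 177558, nat_lit 136278, nat_lit 207019, nat_lit 41430, nat_lit 62059, nat_lit 90213, nat_lit 176314, nat_lit 162066, nat_lit 237091, nat_lit 243462, nat_lit 121099, nat_lit 6903, nat_lit 12121, nat_lit 216433, nat_lit 99986, nat_lit 101197, nat_lit 183686], [nat_lit 206469, nat_lit 80842, nat_lit 50290, nat_lit 18579, nat_lit 249192, nat_lit 83644, nat_lit 138000, nat_lit 208160, nat_lit 248090, nat_lit 85551, nat_lit 135141, nat_lit 198010, nat_lit 4868, nat_lit 8456, nat_lit 135535, nat_lit 205493, nat_lit 80940, nat_lit 136244], [nat_lit 34573, nat_lit 51462, nat_lit 169777, nat_lit 256274, nat_lit 249208, nat_lit 83612, nat_lit 18455, nat_lit 35881, nat_lit 27027, nat_lit 48865, nat_lit 134117, nat_lit 200058, nat_lit 151619, nat_lit 237697,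 nat_lit 552, nat_lit 828, nat_lit 118498, nat_lit 149363], [nat_lit 95901, nat_lit 170982, nat_lit 227106, nat_lit 104755, nat_lit 118605, nat_lit 148870, nat_lit 132627, nat_lit 199457, nat_lit 260587, nat_lit 89725, nat_lit 67429, nat_lit 133562, nat_lit 246282, nat_lit 82703, nat_lit 156197, nat_lit 242490, nat_lit 124633, nat_lit 162670], [nat_lit 41621, nat_lit 62442, nat_lit 118885, nat_lit 155834, nat_lit 221517, nat_lit 111238, nat_lit 1111, nat_lit 2217, nat_lit 139539, nat_lit 209441, nat_lit 189504, nat_lit 227456, nat_lit 151351, nat_lit 230681, nat_lit 88091, nat_lit 175149, nat_lit 98084, nat_lit 169272], [nat_lit 2, nat_lit 3, nat_lit 8, nat_lit 12, nat_lit 32, nat_lit 48, nat_lit 128, nat_lit 192, nat_lit 512, nat_lit 768, nat_lit 2048, nat_lit 3072, nat_lit 8192, nat_lit 12288, nat_lit 32768, nat_lit 49152, nat_lit 131072, nat_lit 196608], [nat_lit 3, nat_lit 1, nat_lit 12, nat_lit 4, nat_lit 48, nat_lit 16, nat_lit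 192, nat_lit 64, nat_lit 768, nat_lit 256, nat_lit 3072, nat_lit 1024, nat_lit 12288, nat_lit 4096, nat_lit 49152, nat_lit 16384, nat_lit 196608, nat_lit 65536], [nat_lit 1, nat_lit 2, nat_lit 4, nat_lit 8, nat_lit 16, nat_lit 32, nat_lit 64, nat_lit 128, nat_lit 256, nat_lit 512, nat_lit 1024, nat_lit 2048, nat_lit 4096, nat_lit 8192, nat_lit 16384, nat_lit 32768, nat_lit 65536, nat_lit 131072], [nat_lit 1, nat_lit 2, nat_lit 8, nat_lit 12, nat_lit 48, nat_lit 16, nat_lit 64, nat_lit 128, nat_lit 512, nat_lit 768, nat_lit 3072, nat_lit 1024, nat_lit 4096, nat_lit 8192, nat_lit 32768, nat_lit 49152, nat_lit 196608, nat_lit 65536], [nat_lit 1, nat_lit 2, nat_lit 12, nat_lit 4, nat_lit 32, nat_lit 48, nat_lit 64, nat_lit 128, nat_lit 768, nat_lit 256, nat_lit 2048, nat_lit 3072, nat_lit 4096, nat_lit 8192, nat_lit 49152, nat_lit 16384, nat_lit 131072, nat_lit 196608], [nat_lit 1, nat_lit 2, nat_lit 4, nat_lit 8, nat_lit 16, nat_lit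 32, nat_lit 128, nat_lit 192, nat_lit 512, nat_lit 768, nat_lit 2048, nat_lit 3072, nat_lit 12288, nat_lit 4096, nat_lit 49152, nat_lit 16384, nat_lit 196608, nat_lit 65536], [nat_lit 1, nat_lit 2, nat_lit 8, nat_lit 12, nat_lit 48, nat_lit 16, nat_lit 128, nat_lit 192, nat_lit 768, nat_lit 256, nat_lit 1024, nat_lit 2048, nat_lit 12288, nat_lit 4096, nat_lit 16384, nat_lit 32768, nat_lit 131072, nat_lit 196608], [nat_lit 1, nat_lit 2, nat_lit 12, nat_lit 4, nat_lit 32, nat_lit 48, nat_lit 128, nat_lit 192, nat_lit 256, nat_lit 512, nat_lit 3072, nat_lit 1024, nat_lit 12288, nat_lit 4096, nat_lit 32768, nat_lit 49152, nat_lit 65536, nat_lit 131072], [nat_lit 1, nat_lit 2, nat_lit 4, nat_lit 8, nat_lit 16, nat_lit 32, nat_lit 192, nat_lit 64, nat_lit 768, nat_lit 256, nat_lit 3072, nat_lit 1024, nat_lit 8192, nat_lit 12288, nat_lit 32768, nat_lit 49152, nat_lit 131072, nat_lit 196608], [nat_lit 1, nat_lit 2, nat_lit 8, nat_lit 12,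 nat_lit 48, nat_lit 16, nat_lit 192, nat_lit 64, nat_lit 256, nat_lit 512, nat_lit 2048, nat_lit 3072, nat_lit 8192, nat_lit 12288, nat_lit 49152, nat_lit 16384, nat_lit 65536, nat_lit 131072], [nat_lit 1, nat_lit 2, nat_lit 12, nat_lit 4, nat_lit 32, nat_lit 48, nat_lit 192, nat_lit 64, nat_lit 512, nat_lit 768, nat_lit 1024, nat_lit 2048, nat_lit 8192, nat_lit 12288, nat_lit 16384, nat_lit 32768, nat_lit 196608, nat_lit 65536], [nat_lit 1, nat_lit 2, nat_lit 8, nat_lit 12, nat_lit 32, nat_lit 48, nat_lit 128, nat_lit 192, nat_lit 768, nat_lit 256, nat_lit 3072, nat_lit 1024, nat_lit 8192, nat_lit 12288, nat_lit 49152, nat_lit 16384, nat_lit 196608, nat_lit 65536], [nat_lit 2, nat_lit 3, nat_lit 4, nat_lit 8, nat_lit 32, nat_lit 48, nat_lit 192, nat_lit 64, nat_lit 512, nat_lit 768, nat_lit 3072, nat_lit 1024, nat_lit 12288, nat_lit 4096, nat_lit 32768, nat_lit 49152, nat_lit 196608, nat_lit 65536], [nat_lit 2, nat_lit 3, nat_lit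 8, nat_lit 12, nat_lit 16, nat_lit 32, nat_lit 192, nat_lit 64, nat_lit 768, nat_lit 256, nat_lit 2048, nat_lit 3072, nat_lit 12288, nat_lit 4096, nat_lit 49152, nat_lit 16384, nat_lit 131072, nat_lit 196608], [nat_lit 2, nat_lit 3, nat_lit 12, nat_lit 4, nat_lit 48, nat_lit 16, nat_lit 64, nat_lit 128, nat_lit 512, nat_lit 768, nat_lit 2048, nat_lit 3072, nat_lit 8192, nat_lit 12288, nat_lit 49152, nat_lit 16384, nat_lit 196608, nat_lit 65536], [nat_lit 3, nat_lit 1, nat_lit 8, nat_lit 12, nat_lit 48, nat_lit 16, nat_lit 128, nat_lit 192, nat_lit 256, nat_lit 512, nat_lit 2048, nat_lit 3072, nat_lit 12288, nat_lit 4096, nat_lit 32768, nat_lit 49152, nat_lit 196608, nat_lit 65536], [nat_lit 3, nat_lit 1, nat_lit 12, nat_lit 4, nat_lit 32, nat_lit 48, nat_lit 128, nat_lit 192, nat_lit 512, nat_lit 768, nat_lit 1024, nat_lit 2048, nat_lit 12288, nat_lit 4096, nat_lit 49152, nat_lit 16384, nat_lit 131072, nat_lit 196608], [nat_lit 2,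 nat_lit 3, nat_lit 12, nat_lit 4, nat_lit 48, nat_lit 16, nat_lit 128, nat_lit 192, nat_lit 768, nat_lit 256, nat_lit 3072, nat_lit 1024, nat_lit 4096, nat_lit 8192, nat_lit 32768, nat_lit 49152, nat_lit 131072, nat_lit 196608], [nat_lit 3, nat_lit 1, nat_lit 8, nat_lit 12, nat_lit 48, nat_lit 16, nat_lit 192, nat_lit 64, nat_lit 512, nat_lit 768, nat_lit 3072, nat_lit 1024, nat_lit 8192, nat_lit 12288, nat_lit 16384, nat_lit 32768, nat_lit 131072, nat_lit 196608], [nat_lit 3, nat_lit 1, nat_lit 12, nat_lit 4, nat_lit 32, nat_lit 48, nat_lit 192, nat_lit 64, nat_lit 768, nat_lit 256, nat_lit 2048, nat_lit 3072, nat_lit 8192, nat_lit 12288, nat_lit 32768, nat_lit 49152, nat_lit 65536, nat_lit 131072], [nat_lit 1, nat_lit 2, nat_lit 4, nat_lit 8, nat_lit 16, nat_lit 32, nat_lit 64, nat_lit 128, nat_lit 256, nat_lit 512, nat_lit 1024, nat_lit 2048, nat_lit 4096, nat_lit 8192, nat_lit 16384, nat_lit 32768, nat_lit 65536, nat_lit 131072],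 [nat_lit 16, nat_lit 32, nat_lit 1, nat_lit 2, nat_lit 4, nat_lit 8, nat_lit 1024, nat_lit 2048, nat_lit 64, nat_lit 128, nat_lit 768, nat_lit 256, nat_lit 65536, nat_lit 131072, nat_lit 4096, nat_lit 8192, nat_lit 32768, nat_lit 49152], [nat_lit 4, nat_lit 8, nat_lit 16, nat_lit 32, nat_lit 1, nat_lit 2, nat_lit 256, nat_lit 512, nat_lit 2048, nat_lit 3072, nat_lit 64, nat_lit 128, nat_lit 16384, nat_lit 32768, nat_lit 196608, nat_lit 65536, nat_lit 4096, nat_lit 8192], [nat_lit 4096, nat_lit 8192, nat_lit 16384, nat_lit 32768, nat_lit 65536, nat_lit 131072, nat_lit 1, nat_lit 2, nat_lit 4, nat_lit 8, nat_lit 16, nat_lit 32, nat_lit 64, nat_lit 128, nat_lit 512, nat_lit 768, nat_lit 3072, nat_lit 1024], [nat_lit 65536, nat_lit 131072, nat_lit 12288, nat_lit 4096, nat_lit 16384, nat_lit 32768, nat_lit 32, nat_lit 48, nat_lit 1, nat_lit 2, nat_lit 4, nat_lit 8, nat_lit 1024, nat_lit 2048, nat_lit 64, nat_lit 128, nat_lit 256, nat_lit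 512], [nat_lit 16384, nat_lit 32768, nat_lit 65536, nat_lit 131072, nat_lit 8192, nat_lit 12288, nat_lit 12, nat_lit 4, nat_lit 16, nat_lit 32, nat_lit 1, nat_lit 2, nat_lit 256, nat_lit 512, nat_lit 1024, nat_lit 2048, nat_lit 64, nat_lit 128], [nat_lit 64, nat_lit 128, nat_lit 256, nat_lit 512, nat_lit 1024, nat_lit 2048, nat_lit 4096, nat_lit 8192, nat_lit 49152, nat_lit 16384, nat_lit 131072, nat_lit 196608, nat_lit 1, nat_lit 2, nat_lit 4, nat_lit 8, nat_lit 16, nat_lit 32], [nat_lit 1024, nat_lit 2048, nat_lit 128, nat_lit 192, nat_lit 256, nat_lit 512, nat_lit 65536, nat_lit 131072, nat_lit 4096, nat_lit 8192, nat_lit 16384, nat_lit 32768, nat_lit 48, nat_lit 16, nat_lit 1, nat_lit 2, nat_lit 4, nat_lit 8], [nat_lit 256, nat_lit 512, nat_lit 1024, nat_lit 2048, nat_lit 192, nat_lit 64, nat_lit 16384, nat_lit 32768, nat_lit 65536, nat_lit 131072, nat_lit 4096, nat_lit 8192, nat_lit 8, nat_lit 12, nat_lit 16, nat_lit 32, nat_lit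 1, nat_lit 2], [nat_lit 1, nat_lit 2, nat_lit 64, nat_lit 128, nat_lit 4096, nat_lit 8192, nat_lit 16, nat_lit 32, nat_lit 1024, nat_lit 2048, nat_lit 65536, nat_lit 131072, nat_lit 4, nat_lit 8, nat_lit 256, nat_lit 512, nat_lit 16384, nat_lit 32768], [nat_lit 1, nat_lit 2, nat_lit 4096, nat_lit 8192, nat_lit 64, nat_lit 128, nat_lit 4, nat_lit 8, nat_lit 16384, nat_lit 32768, nat_lit 256, nat_lit 512, nat_lit 16, nat_lit 32, nat_lit 65536, nat_lit 131072, nat_lit 1024, nat_lit 2048], [nat_lit 1, nat_lit 2, nat_lit 4, nat_lit 8, nat_lit 16, nat_lit 32, nat_lit 64, nat_lit 128, nat_lit 256, nat_lit 512, nat_lit 1024, nat_lit 2048, nat_lit 4096, nat_lit 8192, nat_lit 16384, nat_lit 32768, nat_lit 65536, nat_lit 131072], [nat_lit 1, nat_lit 2, nat_lit 65536, nat_lit 131072, nat_lit 256, nat_lit 512, nat_lit 16384, nat_lit 32768, nat_lit 64, nat_lit 128, nat_lit 16, nat_lit 32, nat_lit 1024, nat_lit 2048, nat_lit 4, nat_lit 8, nat_lit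 4096, nat_lit 8192], [nat_lit 1, nat_lit 2, nat_lit 1024, nat_lit 2048, nat_lit 16384, nat_lit 32768, nat_lit 65536, nat_lit 131072, nat_lit 4, nat_lit 8, nat_lit 64, nat_lit 128, nat_lit 256, nat_lit 512, nat_lit 4096, nat_lit 8192, nat_lit 16, nat_lit 32], [nat_lit 1, nat_lit 2, nat_lit 16, nat_lit 32, nat_lit 4, nat_lit 8, nat_lit 4096, nat_lit 8192, nat_lit 65536, nat_lit 131072, nat_lit 16384, nat_lit 32768, nat_lit 64, nat_lit 128, nat_lit 1024, nat_lit 2048, nat_lit 256, nat_lit 512], [nat_lit 1, nat_lit 2, nat_lit 16384, nat_lit 32768, nat_lit 1024, nat_lit 2048, nat_lit 256, nat_lit 512, nat_lit 16, nat_lit 32, nat_lit 4096, nat_lit 8192, nat_lit 65536, nat_lit 131072, nat_lit 64, nat_lit 128, nat_lit 4, nat_lit 8], [nat_lit 1, nat_lit 2, nat_lit 256, nat_lit 512, nat_lit 65536, nat_lit 131072, nat_lit 1024, nat_lit 2048, nat_lit 4096, nat_lit 8192, nat_lit 4, nat_lit 8, nat_lit 16384, nat_lit 32768, nat_lit 16, nat_lit 32,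 nat_lit 64, nat_lit 128], [nat_lit 1, nat_lit 2, nat_lit 4116, nat_lit 8232, nat_lit 84, nat_lit 168, nat_lit 4176, nat_lit 8352, nat_lit 17664, nat_lit 35328, nat_lit 82176, nat_lit 164352, nat_lit 4164, nat_lit 8328, nat_lit 66816, nat_lit 133632, nat_lit 82944, nat_lit 165888], [nat_lit 1, nat_lit 2, nat_lit 84, nat_lit 168, nat_lit 4116, nat_lit 8232, nat_lit 4164, nat_lit 8328, nat_lit 82944, nat_lit 165888, nat_lit 66816, nat_lit 133632, nat_lit 4176, nat_lit 8352, nat_lit 82176, nat_lit 164352, nat_lit 17664, nat_lit 35328], [nat_lit 1, nat_lit 2, nat_lit 4164, nat_lit 8328, nat_lit 4176, nat_lit 8352, nat_lit 4116, nat_lit 8232, nat_lit 66816, nat_lit 133632, nat_lit 17664, nat_lit 35328, nat_lit 84, nat_lit 168, nat_lit 82944, nat_lit 165888, nat_lit 82176, nat_lit 164352], [nat_lit 1, nat_lit 2, nat_lit 82176, nat_lit 164352, nat_lit 66816, nat_lit 133632, nat_lit 82944, nat_lit 165888, nat_lit 4116, nat_lit 8232, nat_lit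 4176, nat_lit 8352, nat_lit 17664, nat_lit 35328, nat_lit 4164, nat_lit 8328, nat_lit 84, nat_lit 168], [nat_lit 1, nat_lit 2, nat_lit 17664, nat_lit 35328, nat_lit 82944, nat_lit 165888, nat_lit 82176, nat_lit 164352, nat_lit 4164, nat_lit 8328, nat_lit 4116, nat_lit 8232, nat_lit 66816, nat_lit 133632, nat_lit 84, nat_lit 168, nat_lit 4176, nat_lit 8352], [nat_lit 1, nat_lit 2, nat_lit 4176, nat_lit 8352, nat_lit 4164, nat_lit 8328, nat_lit 84, nat_lit 168, nat_lit 82176, nat_lit 164352, nat_lit 82944, nat_lit 165888, nat_lit 4116, nat_lit 8232, nat_lit 17664, nat_lit 35328, nat_lit 66816, nat_lit 133632], [nat_lit 1, nat_lit 2, nat_lit 82944, nat_lit 165888, nat_lit 17664, nat_lit 35328, nat_lit 66816, nat_lit 133632, nat_lit 4176, nat_lit 8352, nat_lit 84, nat_lit 168, nat_lit 82176, nat_lit 164352, nat_lit 4116, nat_lit 8232, nat_lit 4164, nat_lit 8328], [nat_lit 1, nat_lit 2, nat_lit 66816, nat_lit 133632, nat_lit 82176, nat_lit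 164352, nat_lit 17664, nat_lit 35328, nat_lit 84, nat_lit 168, nat_lit 4164, nat_lit 8328, nat_lit 82944, nat_lit 165888, nat_lit 4176, nat_lit 8352, nat_lit 4116, nat_lit 8232], [nat_lit 1, nat_lit 2, nat_lit 12, nat_lit 4, nat_lit 48, nat_lit 16, nat_lit 192, nat_lit 64, nat_lit 512, nat_lit 768, nat_lit 2048, nat_lit 3072, nat_lit 12288, nat_lit 4096, nat_lit 32768, nat_lit 49152, nat_lit 131072, nat_lit 196608], [nat_lit 3, nat_lit 1, nat_lit 4, nat_lit 8, nat_lit 48, nat_lit 16, nat_lit 128, nat_lit 192, nat_lit 768, nat_lit 256, nat_lit 2048, nat_lit 3072, nat_lit 8192, nat_lit 12288, nat_lit 49152, nat_lit 16384, nat_lit 131072, nat_lit 196608], [nat_lit 3, nat_lit 1, nat_lit 12, nat_lit 4, nat_lit 16, nat_lit 32, nat_lit 128, nat_lit 192, nat_lit 512, nat_lit 768, nat_lit 3072, nat_lit 1024, nat_lit 8192, nat_lit 12288, nat_lit 32768, nat_lit 49152, nat_lit 196608, nat_lit 65536], [nat_lit 3, nat_lit 1, nat_lit 8, nat_lit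 12, nat_lit 32, nat_lit 48, nat_lit 64, nat_lit 128, nat_lit 768, nat_lit 256, nat_lit 3072, nat_lit 1024, nat_lit 12288, nat_lit 4096, nat_lit 32768, nat_lit 49152, nat_lit 131072, nat_lit 196608], [nat_lit 2, nat_lit 3, nat_lit 12, nat_lit 4, nat_lit 32, nat_lit 48, nat_lit 192, nat_lit 64, nat_lit 256, nat_lit 512, nat_lit 3072, nat_lit 1024, nat_lit 8192, nat_lit 12288, nat_lit 49152, nat_lit 16384, nat_lit 131072, nat_lit 196608], [nat_lit 2, nat_lit 3, nat_lit 8, nat_lit 12, nat_lit 48, nat_lit 16, nat_lit 192, nat_lit 64, nat_lit 768, nat_lit 256, nat_lit 1024, nat_lit 2048, nat_lit 8192, nat_lit 12288, nat_lit 32768, nat_lit 49152, nat_lit 196608, nat_lit 65536], [nat_lit 3, nat_lit 1, nat_lit 8, nat_lit 12, nat_lit 32, nat_lit 48, nat_lit 192, nat_lit 64, nat_lit 512, nat_lit 768, nat_lit 2048, nat_lit 3072, nat_lit 4096, nat_lit 8192, nat_lit 49152, nat_lit 16384, nat_lit 196608, nat_lit 65536], [nat_lit 2, nat_lit 3, nat_lit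 12, nat_lit 4, nat_lit 32, nat_lit 48, nat_lit 128, nat_lit 192, nat_lit 768, nat_lit 256, nat_lit 2048, nat_lit 3072, nat_lit 12288, nat_lit 4096, nat_lit 16384, nat_lit 32768, nat_lit 196608, nat_lit 65536], [nat_lit 2, nat_lit 3, nat_lit 8, nat_lit 12, nat_lit 48, nat_lit 16, nat_lit 128, nat_lit 192, nat_lit 512, nat_lit 768, nat_lit 3072, nat_lit 1024, nat_lit 12288, nat_lit 4096, nat_lit 49152, nat_lit 16384, nat_lit 65536, nat_lit 131072]]

noncomputable def rw (x : ℕ) : ℕ → ℕ := nthN (nthW rows x)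

noncomputable def imgM (x p : ℕ) : ℕ := xv (rw x) p (2 * 9)

theorem hact : MAct (fun x => mat4 pos (rw x)) (dec4 pos) imgM 66 :=
  mact4' (by decide +kernel) (by decide +kernel) (by decide +kernel)

theorem hbas : ∀ i, dec4 pos (4 ^ pos i) = Pi.single i 1 := by decide +kernel

/-- The letter of the inverse. -/
def iv (x : ℕ) : ℕ := [0, 1, 2, 3, 4, 6, 5, 7, 9, 8, 10, 11, 13, 12, 14, 16, 15, 20, 22, 21, 17, 19, 18, 57, 58, 59, 60, 61, 62, 63, 64, 65, 14, 34, 33, 38, 40, 39, 35, 37, 36, 42, 41, 14, 47, 48, 46, 44, 45, 49, 50, 51, 52, 53, 54, 55, 56, 23, 24, 25, 26, 27, 28, 29, 30, 31].getD x 0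

theorem hiv : ∀ x < 66, 1 ≤ x → (1 ≤ iv x ∧ iv x < 66) ∧
    ∀ i, imgM (iv x) (imgM x (4 ^ pos i)) = 4 ^ pos i := by decide +kernel

/-- A unit from a right inverse. -/
def mkGL (A B : Matrix F9 F9 F4) (h : A * B = 1) : GL F9 F4 := ⟨A, B, h, mul_eq_one_comm.mp h⟩

/-- The letters in the general linear group. -/
noncomputable def evG (x : ℕ) : GL F9 F4 :=
  if h : 1 ≤ x ∧ x < 66 then
    mkGL _ _ (hact.mul_eq_one hbas h (hiv x h.2 h.1).1 (hiv x h.2 h.1).2) else 1

theorem hμ : ∀ x, 1 ≤ x → x < 66 → Units.coeHom _ (evG x) = mat4 pos (rw x) := by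
  intro x h1 h2
  unfold evG
  rw [dif_pos ⟨h1, h2⟩]
  rfl

theorem oraM : Oracle evG imgM 66 [1, 4, 16, 64, 256, 1024, 4096, 16384, 65536] :=
  hact.oracle Units.coeHom_injective hμ hbas (by decide +kernel)

theorem hgen : ∀ Z, matEq (j3A F4 (F4.mk 2) Z) (mat4 pos (rw (14 + pos Z))) = true ∧
    matEq (j3E F4 (F4.mk 2) Z) (mat4 pos (rw (23 + pos Z))) = true ∧
    matEq (j3D F4 (F4.mk 2) Z) (mat4 pos (rw (32 + pos Z))) = true ∧ (Z ≠ 0 → 1 ≤ pos Z ∧
    matEq (j3B F4 Z) (mat4 pos (rw (40 + pos Z))) = true ∧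
    matEq (j3C F4 Z) (mat4 pos (rw (48 + pos Z))) = true) := by decide +kernel

theorem pos_lt : ∀ Z, pos Z < 9 := by decide +kernel

theorem gens_iff (A : Matrix F9 F9 F4) :
    A ∈ j3Gens F4 (F4.mk 2) ↔ ∃ x, 14 ≤ x ∧ x < 57 ∧ A = mat4 pos (rw x) := by
  constructor
  · rintro ((((⟨Z, rfl⟩ | ⟨Z, rfl⟩) | ⟨Z, rfl⟩) | ⟨Z, h, rfl⟩) | ⟨Z, h, rfl⟩) <;>
      have := pos_lt Z
    · exact ⟨_, by omega, by omega, eq_of_matEq (hgen Z).1⟩
    · exact ⟨_, by omega, by omega, eq_of_matEq (hgen Z).2.1⟩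
    · exact ⟨_, by omega, by omega, eq_of_matEq (hgen Z).2.2.1⟩
    · exact ⟨_, by omega, by omega, eq_of_matEq ((hgen Z).2.2.2 h).2.1⟩
    · exact ⟨_, by omega, by omega, eq_of_matEq ((hgen Z).2.2.2 h).2.2⟩
  · rintro ⟨x, h1, h2, rfl⟩
    have : ∀ x < 57, 14 ≤ x → ∃ Z, x = 14 + pos Z ∨ x = 23 + pos Z ∨ x = 32 + pos Z ∨
        (Z ≠ 0 ∧ (x = 40 + pos Z ∨ x = 48 + pos Z)) := by decide +kernel
    obtain ⟨Z, rfl | rfl | rfl | ⟨h, rfl | rfl⟩⟩ := this x h2 h1
    · exact Or.inl (Or.inl (Or.inl (Or.inl ⟨Z, eq_of_matEq (hgen Z).1⟩)))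
    · exact Or.inl (Or.inl (Or.inl (Or.inr ⟨Z, eq_of_matEq (hgen Z).2.1⟩)))
    · exact Or.inl (Or.inl (Or.inr ⟨Z, eq_of_matEq (hgen Z).2.2.1⟩))
    · exact Or.inl (Or.inr ⟨Z, h, (eq_of_matEq ((hgen Z).2.2.2 h).2.1).symm⟩)
    · exact Or.inr ⟨Z, h, (eq_of_matEq ((hgen Z).2.2.2 h).2.2).symm⟩

/-- The triple cover. -/
abbrev T3 : Subgroup (GL F9 F4) := threeJ3 F4 (F4.mk 2)

def X12 : List (List ℕ) := [[1], [2], [3], [4], [5], [6], [7], [8], [9], [10], [11], [12]]

def W1 : List (List ℕ) := [[35,33,24,49,33,49,24,33,53,33,44,15,23,23,25,15,23,23,25], [24,35,53,35,24,53,17,35,49,24,15,23,23,25,15,23,23,25], [17,23,33,49,33,53,35,44,53,24,35,53,15,23,23,25], [35,44,35,49,35,33,17,49,33,53,15,23,23,25,15,23,23,25], [49,35,49,35,53,33,17,49,33,33,35,53,15,23,23,25], [45,17,53,33,35,51,17,35,24,53,24,33,15,23,23,25], [49,24,35,53,44,33,17,53,17,35,33,53,15,23,23,25], [45,35,35,53,35,53,24,24,49,35,15,23,23,25], [24,35,35,24,49,33,35,49,17,33,45],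 [35,51,35,35,33,51,17,33,49,35,23,49,15,23,23,25,15,23,23,25], [17,49,24,35,35,49,33,53,33,49,33,15,23,23,25,15,23,23,25], [15,23,23,25,15,23,23,25]]

def W2 : List (List ℕ) := [[], [5,11,1,2,11,4,2,1,4,11,8,1,12,12], [7,4,2,6,4,11,1,2,10,1,7,10,12,12], [2,1,4,7,11,4,7,1,6,10,11,4,12,12], [1,5,11,10,11,7,10,2,4,2,7,4,12], [1,5,10,2,4,6,7,1,4,11,4], [4,8,2,10,7,4,9,1,2,10,7,4,12], [4,11,4,7,8,2,4,2,4,5,10], [1,2,4,6,7,10,11,3,7,10,11,1,12], [5,4,11,4,10,7,10,6,11], [2,4,5,7,4,2,11,5,7,4,6,11], [6,4,2,4,11,8,2,4,2,4,5,12], [2,11,3,4,11,2,4,1,11,4,8,10], [5,8,1,7,4,5,11,4,7,11,3,12], [1,3,7,9,11,4,11,2,3,7], [4,9,3,10,7,10,7,5,4,11,12,12], [1,3,11,4,10,7,11,4,10,11,7,12], [10,7,11,3,4,7,1,10,11,7,4,10], [], [6,10,1,11,10,11,4,5,7,9,3,10,12,12], [2,4,8,7,10,1,9,6,7,10,11,12], [5,7,10,2,7,10,7,1,4,11,7], [7,11,8,2,4,2,10,7,10,1,7,10,12], [1,7,4,2,11,7,10,1,11,10,1,11], [6,4,11,2,7,4,10,2,4,5,11,12,12], [4,11,9,7,10,7,11,10,1,11,1,4,12],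 [7,8,11,10,7,11,10,7,8,1,10,2], [6,7,10,11,1,7,11,3,12], [3,11,2,7,11,10,7,5,12,12], [], [5,4,7,9,10,2,4,1,8,7,10,12], [6,4,5,11,7,10,7,1,9,10,1,2,12,12], [4,5,10,2,4,6,11,4], [4,10,7,4,8,2,10,5,7,4,6,12], [4,2,7,10,1,7,11,2,4,6,11,7,12,12], [2,3,8,7,10,1,11,7,4,6,11,12], [7,10,7,11,3,7,8,7,4,11,9], [5,11,4,6,11], [2,6,4,11,2,7,8,2,4,2,8,12], [5,4,7,11,10,1,11,10,11,1,7,4,12], [4,5,8,10,2,11,4], [7,4,11,1,2,7,11,6,4,7], [2,6,7,10,2,7,11,1,10,1,7,12]]

theorem mem1 : ∀ t ∈ X12, evL evG t ∈ T3 := by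
  refine oraM.mem_of_words (W := W1) (fun u hu => evL_mem_of_letters fun x hx => ?_)
    (by decide +kernel)
  have : ∀ u ∈ W1, ∀ x ∈ u, 14 ≤ x ∧ x < 57 := by decide +kernel
  obtain ⟨h1, h2⟩ := this u hu x hx
  exact Subgroup.subset_closure ((gens_iff _).mpr ⟨x, h1, h2, hμ x (by omega) (by omega)⟩)

theorem gen12 : gen evG X12 = T3 := by
  refine le_antisymm (gen_le mem1) ((Subgroup.closure_le _).mpr fun g hg => ?_)
  obtain ⟨x, h1, h2, e⟩ := (gens_iff _).mp hg
  have := oraM.mem_of_words (K := gen evG X12) (W := W2) (T := (List.range 43).map fun i => [14 + i])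
    (mem_of_letChk (by decide +kernel)) (by decide +kernel) [x]
    (List.mem_map.mpr ⟨x - 14, List.mem_range.mpr (by omega), by rw [show 14 + (x - 14) = x by omega]⟩)
  rw [evL_singleton] at this
  rwa [show g = evG x from Units.ext (e.trans (hμ x (by omega) (by omega)).symm)]

theorem hs0 : ∀ l, evS evG ([] :: X12) l ∈ T3 :=
  evS_mem (List.forall_mem_cons.mpr ⟨T3.one_mem, mem1⟩)

/-- The letters in the triple cover. -/
noncomputable def evT : ℕ → T3 := evSub (evS evG ([] :: X12)) T3 hs0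

theorem hT : gen evT X12 = ⊤ :=
  gen_evSub hs0 (by rw [gen_evS, show X12.map (subst ([] :: X12)) = X12 by decide +kernel, gen12])

theorem z_central : evT 12 ∈ Subgroup.center T3 := by
  rw [Subgroup.mem_center_iff]
  intro g
  apply Subtype.ext
  apply Units.coeHom_injective
  have e : Units.coeHom _ (evT 12).1 = scalar F9 (F4.mk 2) := by
    rw [show (evT 12).1 = evG 12 from evL_singleton evG 12, hμ 12 (by norm_num) (by norm_num)]
    exact eq_of_matEq (by decide +kernel)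
  rw [Subgroup.coe_mul, Subgroup.coe_mul, map_mul, map_mul, e]
  exact (scalar_commute _ (fun _ => Commute.all _ _) _).symm.eq

theorem iso : Nonempty (Grp ≃* Spor.J3 F4 (F4.mk 2)) := by
  have := simple
  have hq := quot_of_chk (oraM.sub hs0) (N := Subgroup.center T3) (Z := [[], [12], [12, 12]])
    (R := Cfsg.H5.P3.R) (inv := 3416462311689318815716475136) (m := 12) (fun z hz => evL_mem_of_letters (by
      have : ∀ x ∈ z, x = 12 := by
        revert z
        decide +kernel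
      intro x hx
      rw [this x hx]
      exact z_central)) rfl (fun l hl => by
      by_cases h : l = 12
      · rw [h]; exact z_central
      · have : evSub (evS evG ([] :: X12)) T3 hs0 l = 1 := Subtype.ext (by
          show evL evG (([] :: X12).getD l []) = 1
          rw [List.getD_eq_default _ _ (by change 13 ≤ l; omega)]
          rfl)
        rw [this]
        exact Subgroup.one_mem _) (by decide +kernel)
  obtain ⟨ψ, hψ⟩ := lift hq.1 hq.2
  have h1 : ψ (ev 1) ≠ 1 := by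
    rw [hψ]
    intro h
    have h2 : evT 1 ∈ Subgroup.center T3 := (QuotientGroup.eq_one_iff _).mp h
    rw [← evL_singleton evT 1] at h2
    refine not_mem_center_of_ne (y := [2]) (fun e => ?_) h2
    have h3 := congrArg Subtype.val e
    rw [evT, coe_evL_evSub, coe_evL_evSub, evL_subst, evL_subst] at h3
    exact hact.ne hμ (p := 1) (i := (0, 0)) (by decide +kernel) (by decide +kernel)
      (by decide +kernel) h3
  refine ⟨MulEquiv.ofBijective ψ ⟨injective_of_simple ψ h1, MonoidHom.range_eq_top.mp ?_⟩⟩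
  rw [eq_top_iff, ← Subgroup.map_top_of_surjective _ (QuotientGroup.mk'_surjective _), ← hT, map_gen]
  refine gen_le fun w hw => evL_mem_of_letters fun x _ => ⟨ev x, hψ x⟩

end Cfsg.H6.J3
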