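import Cfsg.Agent.H5.J3.Rep
import Cfsg.Agent.H5.J3.C1.Main

set_option autoImplicit false
set_option maxRecDepth 100000
set_option Elab.async false

namespace Cfsg.H6.J3

/-- The presented group. -/
abbrev Grp : Type := Cfsg.H5.PG 3416462311689318815716475136 Cfsg.H5.P3.R

/-- The letters. -/
def ev : ℕ → Grp := Cfsg.H5.pgEv 3416462311689318815716475136 Cfsg.H5.P3.R

def X : List (List ℕ) := [[1], [2], [3], [4], [5], [7], [8], [10], [11]]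

theorem hev : Good ev 3416462311689318815716475136 := Cfsg.H5.pg_good _ _

theorem hR : Rels ev Cfsg.H5.P3.R := Cfsg.H5.pg_rels _ _

theorem hX : gen ev X = ⊤ := Cfsg.H5.P3.gen_top

theorem lift {G : Type*} [Group G] {ev' : ℕ → G} (h : Good ev' 3416462311689318815716475136) (h' : Rels ev' Cfsg.H5.P3.R) :
    ∃ φ : Grp →* G, ∀ l, φ (ev l) = ev' l := Cfsg.H5.pg_lift h h'

theorem rel : Cfsg.H5.P3.Rel (ev 1) (ev 2) (ev 3) (ev 4) (ev 5) (ev 7) (ev 8) (ev 10) (ev 11) := Cfsg.H5.P3.rel_of hev hR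

theorem cover : Cover (gen ev Ws) ⊤ 17442 := hX ▸ C1.cover hev hR

theorem ubH : UB (gen ev Ws) 2880 := by
  have H := rel
  have X : Cfsg.H5.P3X.Rel (ev 1) (ev 2) (ev 3) (ev 4) (ev 5) (ev 8) :=
    ⟨⟨H.hC.hN, H.x3, H.xt, H.xw, H.xz, H.xa⟩, H.bx⟩
  have N := H.hC.hN
  have E : Cfsg.H5.P3E.Rel (ev 1) (ev 3) (ev 4) (ev 5) (ev 8) (ev 10) (ev 2 * ev 4 * ev 2) :=
    ⟨N.aa, N.zz, N.ww, H.hh, by
      rw [mul_assoc _ (ev 2), ← mul_assoc (ev 2), ← mul_assoc (ev 2), N.bb, one_mul,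
        ← mul_assoc, mul_assoc (ev 2), N.ww, mul_one, N.bb],
      N.za, N.zw, N.wa, N.t3, N.tw, N.zt, N.ta, H.x3, H.xt, H.xw, H.xz, H.xa, H.hz, H.ht, H.hc,
      Cfsg.H5.P3X.cz X, Cfsg.H5.P3X.ca X, Cfsg.H5.P3X.tc X, Cfsg.H5.P3X.xc X, Cfsg.H5.P3X.wc X⟩
  refine (Cfsg.H5.P3E.ub (Cfsg.H5.P3E.good E) (Cfsg.H5.P3E.rels E)).mono (gen_le ?_)
  have m : ∀ l, ([[1], [2], [3], [4], [6], [8], [9]] : List (List ℕ)).elem [l] = true → _ :=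
    Cfsg.H5.letter_mem (Cfsg.H5.P3E.ev (ev 1) (ev 3) (ev 4) (ev 5) (ev 8) (ev 10) (ev 2 * ev 4 * ev 2))
  unfold Ws
  simp only [List.forall_mem_cons, evL_cons, evL_nil, mul_one, ← mul_assoc]
  exact ⟨m 1 rfl, m 2 rfl, m 3 rfl, m 4 rfl, m 6 rfl, m 8 rfl, m 9 rfl, by simp⟩

theorem ub : UB (⊤ : Subgroup Grp) 50232960 := ubH.cover cover

def I : List Ivl := [(1, 6, [2]), (6, 26, [11]), (26, 106, [2,11]), (106, 202, [2,10,7,10,2]), (202, 322, [7]), (322, 642, [2,11,2]), (642, 1122, [2,10,7]), (1122, 1602, [7,10,2]), (1602, 2562, [7,11]), (2562, 3522, [2,7,11]), (3522, 4482, [7,8,7]), (4482, 5442, [2,7,4,11,7]), (5442, 6402, [7,4,11,4,7]), (6402, 7362, [7,10,2,11,7]), (7362, 8802, [7,10,11,7]), (8802, 11682, [2,7,10,7]), (11682, 14562, [7,4,11,2]), (14562, 17442, [7,4,11,7])]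

theorem act : ∃ φ : Grp →* Equiv.Perm ℕ, IsAct φ ev img 17442 12 := by
  obtain ⟨ψ, hψ⟩ := lift rep.1 rep.2.1
  exact ⟨_, rep.2.2.comp ψ hψ⟩

/-- The permutation representation. -/
noncomputable def φ : Grp →* Equiv.Perm ℕ := act.choose

theorem hφ : IsAct φ ev img 17442 12 := act.choose_spec

theorem prim : Prim φ ev (gen ev Ws) 17442 I :=
  prim_sound hφ cover (List.forall_mem_cons.mpr ⟨iv0 hφ, (List.forall_mem_cons.mpr ⟨iv1 hφ, (List.forall_mem_cons.mpr ⟨iv2 hφ, (List.forall_mem_cons.mpr ⟨iv3 hφ, (List.forall_mem_cons.mpr ⟨iv4 hφ, (List.forall_mem_cons.mpr ⟨iv5 hφ, (List.forall_mem_cons.mpr ⟨iv6 hφ, (List.forall_mem_cons.mpr ⟨iv7 hφ, (List.forall_mem_cons.mpr ⟨iv8 hφ, (List.forall_mem_cons.mpr ⟨iv9 hφ, (List.forall_mem_cons.mpr ⟨iv10 hφ, (List.forall_mem_cons.mpr ⟨iv11 hφ, (List.forall_mem_cons.mpr ⟨iv12 hφ, (List.forall_mem_cons.mpr ⟨iv13 hφ,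 (List.forall_mem_cons.mpr ⟨iv14 hφ, (List.forall_mem_cons.mpr ⟨iv15 hφ, (List.forall_mem_cons.mpr ⟨iv16 hφ, (List.forall_mem_cons.mpr ⟨iv17 hφ, (by simp)⟩)⟩)⟩)⟩)⟩)⟩)⟩)⟩)⟩)⟩)⟩)⟩)⟩)⟩)⟩)⟩)⟩)⟩) (by decide +kernel)

theorem coatom : IsCoatom (gen ev Ws) :=
  prim.isCoatom hφ hX (C := [[], [0], [0,6,0,3,6,0,3,6,0,6,0,1,6,0,1,3,6,0,3,6,0,6,0,6,0,6,7], [0,6,0,6], [0,6,0,6,0,6,0], [0,1,6,0,1,7,0,4,7,0,5,7,0], [0,1,0,0,1,0], [0,2,0,1,3,7,0,2,0,7], [0,0,1,0,1], [0,4,0,1,0,6,0,3,0,6,0], [0,1,4,3,0,2,4,0,7], [0,4,0,3,0,6,0,1], [0,1,0], [0,1,0,6,0,1,0,6], [0,1,6,7,3,0,7,4,3,0,3,0], [0,3,0,7,0], [0,1,0,1,2,3,0,6,0], [0,1,0,6,1,0,5,7], [0,0,4,0,0,2,0,4,0], [0,0,3,4,0,0,5,0,0], [0,0,3,4,0,0,5,0], [0,0,1,6,1,7,0,0], [0,5,0,2,0,0], [0,5,0,0,5], [0,5,0,2], [0,2,5,0,0,0], [0,0,2,0], [0,0,2,0,0], [0,3,7,0,3,4,7], [0,0,5,0,2], [0,0,7,0,0,5,0,0], [0,7,6,0,0,5], [0,0,0,2,6,0],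 [0,1,0,7,0,2,4,4,0], [0,7,0,1,6], [0,2,6,0,5,7,0], [0,3,0,7,3,6,1,0], [0,1,0,2,0,1,0,7], [0,1,0,1,4,0,2], [0,0,0,2,0,0,0], [0,0,5,0,7,0,0], [0,0,4,0,1,2], [0,0,1,0,0], [0,0,4,7], [0,3,4,3,7,0,7], [0,3,0,3,6,7,0], [0,2,5,7,3,0,0], [0,3,0,0,3,5,6,0], [0,0,4,0,5,6,0,0], [0,0,2,0,0,3], [0,3,0,1,3,7,0]]) (by decide +kernel)

def lW0 : List (List ℕ) := [[nat_lit 5], [nat_lit 2, nat_lit 4, nat_lit 2]]

theorem l0 : lvlChk img 17442 12 [1,0] (2, lW0, unp 3 (nat_lit 0x5000000030000000201)) = true := by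
  decide +kernel

def lW1 : List (List ℕ) := [[nat_lit 5]]

theorem l1 : lvlChk img 17442 12 [2,1,0] (3, lW1, unp 2 (nat_lit 0x50000000300)) = true := by
  decide +kernel

def lW2 : List (List ℕ) := [[nat_lit 1], [nat_lit 3]]

theorem l2 : lvlChk img 17442 12 [3,2,1,0] (6, lW2, unp 3 (nat_lit 0x8000000060100000600)) = true := by
  decide +kernel

def lW3 : List (List ℕ) := [[nat_lit 8, nat_lit 6]]

theorem l3 : lvlChk img 17442 12 [6,3,2,1,0] (7, lW3, unp 2 (nat_lit 0x80000000700)) = true := by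
  decide +kernel

def lW4 : List (List ℕ) := [[nat_lit 5, nat_lit 4, nat_lit 6]]

theorem l4 : lvlChk img 17442 12 [7,6,3,2,1,0] (206, lW4, unp 1 (nat_lit 0xce00)) = true := by
  decide +kernel

def lW5 : List (List ℕ) := [[nat_lit 4]]

theorem l5 : lvlChk img 17442 12 [206,7,6,3,2,1,0] (9, lW5, unp 1 (nat_lit 0x900)) = true := by
  decide +kernel

theorem finite : Finite Grp := ub.top.1

def bs : List ℕ := [9,206,7,6,3,2,1,0]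

theorem lb : LBn φ ⊤ 17442 bs 50232960 := by
  have := finite
  exact LBn.cast (((((((prim.lb2 (e := I.head (by decide)) (List.head_mem _)).stepT hφ l0).stepT hφ l1).stepT hφ l2).stepT hφ l3).stepT hφ l4).stepT hφ l5) (by decide +kernel)

theorem main : Nat.card Grp = 50232960 ∧ fixS φ bs = ⊥ ∧ Oracle ev img 12 bs := by
  have := finite
  exact lb.oracle hφ ub.top.2

theorem normal (N : Subgroup Grp) [N.Normal] (hN : N ≠ ⊥) :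
    ∀ t ∈ ([[1], [2], [3], [4], [5], [7], [8], [10], [11]] : List (List ℕ)), evL ev t ∈ N := by
  have := finite
  exact prim.normal_contains hev coatom lb.2 main.2.1 main.2.2 (p := 19) (k := 1) (j := 1) (by norm_num)
    main.1 (x := [10,8,2,1]) (St := [([10,8,2,1], [], [1], 9, 2), ([1], [], [11], 5, 2), ([11], [], [2], 3, 2), ([11], [], [3], 3, 2), ([2], [], [10], 9, 2), ([10,8,2,1], [], [4], 9, 2), ([4], [], [7], 3, 2), ([7], [], [5], 2, 3), ([7], [], [8], 10, 3)]) (by decide +kernel) N hN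

theorem simple : IsSimpleGroup Grp := by
  have := prim.nontrivial
  exact isSimple_of_contains hX normal

end Cfsg.H6.J3
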